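import Cfsg.Agent.FischerGQ.Cert.FiveC.Data

/-! Generated: checks of facts. -/

set_option autoImplicit false
set_option maxRecDepth 100000

namespace CfsgLib.FischerGQ.Cert.FiveC

open CfsgLib.CosetEnum

theorem facts0 : checkFacts epF (fun x => x) words 131 0 [0x1, 0x8400003, 0x8500003, 0x8600003, 0x8700003, 0x8800003, 0x8900003, 0x0, 0xe000040000f00003000070001900006, 0x0, 0x0, 0x0, 0x140001300017000000000a0001100006, 0x0, 0x1a0000e0000c0000f0001b000000000d0001d00008, 0x0, 0x1a000150001f000000000d0001500006, 0x0, 0x0, 0x240001a000100001b0002500005000120000f00008, 0x0, 0x24000210002900003000140000e00006, 0x0, 0x0, 0x2c000290002f00000000160000d00006, 0x0, 0x23000330002c000200001a0000e0000c0000a000080000a0000c00008000060000a0000f00015000190000f0000b0004500014, 0xa00006000080000c000040000c00008000060000a0000f00015000190002300033000320002200018000140000e00005000000004000016, 0x3400030000350003600003000190000e00007, 0x2f000390000000003, 0x3a0002c0000000003, 0x2b0003c0000000003, 0x3e000200000000003, 0x4100026000400000000004, 0x420001a0000000003, 0x450001c000440000000004, 0x460000e0000000003, 0xf000480000000003]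 = true := by
  decide +kernel

theorem factsUpTo38 (h : FactsChecked cert.ep cert.iv cert.words cert.nr 0) :
    FactsChecked cert.ep cert.iv cert.words cert.nr 38 :=
  (FactsChecked.app _ 38 h facts0 rfl)

end CfsgLib.FischerGQ.Cert.FiveC
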